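import Mathlib
import Cfsg.Agent.H452.Ext_mg
import Cfsg.Agent.Lib.CoprimeHyperplane
import Cfsg.Agent.Lib.NilpotentCoprime
import Cfsg.Agent.OddOrderLocal.FpfSolvable
set_option linter.all false

-- part: H452/TopH2
section
/-!
# Height of `⁅G, D⁆` at most two from the three-step property `T3`

`T3 p PP` : if `A` acts without fixed points on the `r`-group `P`, the `s`-group `Q` (`P` normalises `Q`) and on
the module `V`, then `⁅P, D⁆` commutes with `Q` on `V`. Then `⁅G, D⁆` has a nilpotent subgroup `N`, normal in the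
whole group, with nilpotent quotient (`height_two`).
-/

set_option autoImplicit false

namespace Cfsg.Agent.H452.TopH2

open Module
open scoped commutatorElement
open Cfsg.Agent.Lib.CoprimeCommutator
open Cfsg.Agent.H452.Base Cfsg.Agent.H452.TopN Cfsg.Agent.H452.MinAct Cfsg.Agent.H452.Ext

universe u

/-- The three-step property. -/
def T3 (p : ℕ) (PP : Pr.{u}) : Prop :=
  ∀ (Γ : Type u) [Group Γ] [Finite Γ] (A D P Q : Subgroup Γ) (r s : ℕ) (F : Type) [Field F]
    [IsAlgClosed F] (V : Type u) [AddCommGroup V] [Module F V] [FiniteDimensional F V]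
    (ρ : Representation F Γ V),
    PP Γ A D → IsPGroup p A → r.Prime → s.Prime → r ≠ p → s ≠ p → r ≠ s → IsPGroup r P →
    IsPGroup s Q → A ≤ Subgroup.normalizer (P : Set Γ) → A ≤ Subgroup.normalizer (Q : Set Γ) →
    P ≤ Subgroup.normalizer (Q : Set Γ) →
    (∀ x ∈ P, (∀ a ∈ A, a * x = x * a) → x = 1) → (∀ x ∈ Q, (∀ a ∈ A, a * x = x * a) → x = 1) →
    (p : F) ≠ 0 → (s : F) ≠ 0 → (∀ v, (∀ a ∈ A, ρ a v = v) → v = 0) →
    ∀ u ∈ (⁅P, D⁆ : Subgroup Γ), ∀ y ∈ Q, ρ (u * y) = ρ (y * u)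

theorem chief_commutator_le {Γ : Type*} [Group Γ] {U V H U₀ X : Subgroup Γ} (h : Chief U V)
    (hH : H.Normal) (hU : U ≤ V ⊔ U₀) (hU₀U : U₀ ≤ U) (hU₀H : U₀ ≤ H) {k : ℕ}
    (hX : H.lowerCentralSeries k ≤ X) (hUX : U ⊓ X ≤ V) : ⁅U, H⁆ ≤ V := by
  obtain ⟨hUn, hVn, hlt, hch⟩ := h
  by_contra hcon
  have hUH : ⁅U, H⁆ ≤ U := Subgroup.commutator_le_left U H
  have hkey : V ⊔ ⁅U, H⁆ = U := by
    rcases hch (V ⊔ ⁅U, H⁆) inferInstance le_sup_left (sup_le hlt.le hUH) with h1 | h1
    · exfalso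
      apply hcon
      rw [← h1]; exact le_sup_right
    · exact h1
  have hstep : ∀ Y : Subgroup Γ, U ≤ V ⊔ Y → U ≤ V ⊔ ⁅Y, H⁆ := by
    intro Y hY
    conv_lhs => rw [← hkey]
    refine sup_le le_sup_left ?_
    rw [Subgroup.commutator_le]
    intro g hg x hx
    obtain ⟨v, hv, y, hy, rfl⟩ := Subgroup.mem_sup_of_normal_left.1 (hY hg)
    have h1 : ⁅v * y, x⁆ = v * ⁅y, x⁆ * (x * v⁻¹ * x⁻¹) := by
      rw [commutatorElement_def, commutatorElement_def]; group
    rw [h1]
    refine Subgroup.mul_mem _ (Subgroup.mul_mem _ (Subgroup.mem_sup_left hv) ?_) ?_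
    · exact Subgroup.mem_sup_right (Subgroup.commutator_mem_commutator hy hx)
    · exact Subgroup.mem_sup_left (hVn.conj_mem _ (V.inv_mem hv) x)
  have hall : ∀ n : ℕ, ∃ Y : Subgroup Γ, Y ≤ U ∧ Y ≤ H.lowerCentralSeries n ∧ U ≤ V ⊔ Y := by
    intro n
    induction n with
    | zero => exact ⟨U₀, hU₀U, hU₀H, hU⟩
    | succ n ih =>
      obtain ⟨Y, h1, h2, h3⟩ := ih
      refine ⟨⁅Y, H⁆, (Subgroup.commutator_mono h1 le_rfl).trans hUH, ?_, hstep Y h3⟩
      rw [Subgroup.lowerCentralSeries_succ]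
      exact Subgroup.commutator_mono h2 le_rfl
  obtain ⟨Y, h1, h2, h3⟩ := hall k
  have h4 : Y ≤ V := (le_inf h1 (h2.trans hX)).trans hUX
  rw [sup_eq_left.2 h4] at h3
  exact hlt.not_ge h3

theorem isNilpotent_of_le {Γ : Type*} [Group Γ] {H K : Subgroup Γ} (h : H ≤ K)
    (hK : Group.IsNilpotent K) : Group.IsNilpotent H := by
  rw [Subgroup.isNilpotent_iff_lowerCentralSeries] at hK ⊢
  obtain ⟨k, hk⟩ := hK
  refine ⟨k, ?_⟩
  rw [eq_bot_iff, ← hk]
  exact lcs_mono h k

theorem mem_of_coprime_pow {Γ : Type*} [Group Γ] {V : Subgroup Γ} {x : Γ} {a b : ℕ}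
    (ha : x ^ a ∈ V) (hb : x ^ b ∈ V) (hab : a.Coprime b) : x ∈ V := by
  have h1 : ((a : ℤ) * a.gcdA b + b * a.gcdB b) = 1 := by
    rw [← Nat.gcd_eq_gcd_ab, hab, Nat.cast_one]
  have h2 : x = (x ^ a) ^ (a.gcdA b) * (x ^ b) ^ (a.gcdB b) := by
    rw [← zpow_natCast, ← zpow_natCast, ← zpow_mul, ← zpow_mul, ← zpow_add, h1, zpow_one]
  rw [h2]
  exact V.mul_mem (V.zpow_mem ha _) (V.zpow_mem hb _)

theorem extH {p : ℕ} [hp : Fact p.Prime] {PP : Pr.{u}} (hc : Closed p PP) (hT : T3 p PP)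
    {Γ : Type u} [Group Γ] [Finite Γ] {G A D : Subgroup Γ} (h : Cfg p G A) (hP : PP Γ A D)
    {W : Type u} [CommGroup W] [Finite W] [Nontrivial W] {q : ℕ} [hq : Fact q.Prime]
    (hqp : q ≠ p) (hW : ∀ w : W, w ^ q = 1) (κ : Γ →* MulAut W)
    (hfix : ∀ w, (∀ a ∈ A, κ a w = w) → w = 1)
    (hirr : ∀ X : Subgroup W, (∀ g, ∀ x ∈ X, κ g x ∈ X) → X = ⊥ ∨ X = ⊤)
    (hfaith : ∀ g ∈ G, κ g = 1 → g = 1) (M : Subgroup Γ) (hM : M.Normal)
    (hML : M ≤ (⁅G, D⁆ : Subgroup Γ)) (hMn : Group.IsNilpotent M)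
    (hLM : ∃ k, (⁅G, D⁆ : Subgroup Γ).lowerCentralSeries k ≤ M) :
    Group.IsNilpotent (⁅G, D⁆ : Subgroup Γ) := by
  have hDA := hc.le Γ A D hP
  have hL : (⁅G, D⁆ : Subgroup Γ).Normal := h.commutator_normal (hc.norm Γ A D hP)
  have hLL := h.commutator_commutator hDA
  set L : Subgroup Γ := ⁅G, D⁆ with hLdef
  have hLG : L ≤ G := commutator_le_left (h.le_normalizer D)
  have hqA : ¬ q ∣ Nat.card A := by
    intro hd
    obtain ⟨k, hk⟩ := IsPGroup.iff_card.1 h.isp
    rw [hk] at hd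
    exact hqp ((Nat.prime_dvd_prime_iff_eq hq.out hp.out).1 (hq.out.dvd_of_dvd_pow hd))
  obtain ⟨F, _, _, V, _, _, _, ρ, hF, hρ, hρfix⟩ := exists_rep q hW κ A hqA hfix
  apply isNilpotent_of_chief L hL
  intro U V₁ hUV hUL
  have hUn := hUV.1
  have hVn := hUV.2.1
  have hVU : V₁ ≤ U := hUV.2.2.1.le
  obtain ⟨k, hk⟩ := hLM
  by_cases hA : U ⊓ M ≤ V₁
  · exact chief_commutator_le hUV hL le_sup_right le_rfl hUL hk hA
  have hUM : V₁ ⊔ (U ⊓ M) = U := by
    rcases hUV.2.2.2 (V₁ ⊔ (U ⊓ M)) inferInstance le_sup_left (sup_le hVU inf_le_left) with h1 | h1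
    · exfalso; apply hA; rw [← h1]; exact le_sup_right
    · exact h1
  have hVG : V₁ ≤ G := hVU.trans (hUL.trans hLG)
  -- the minimal normal subgroup of `Γ ⧸ V₁`
  have h1 := h.map V₁ hVG
  have hmin := hUV.isMin
  set W₁ : Subgroup (Γ ⧸ V₁) := U.map (QuotientGroup.mk' V₁) with hW₁
  have hW₁G : W₁ ≤ G.map (QuotientGroup.mk' V₁) := Subgroup.map_mono (hUL.trans hLG)
  have hGs := h1.sol
  have hWs : Group.IsSolvable W₁ :=
    Group.isSolvable_of_isSolvable_injective (f := Subgroup.inclusion hW₁G)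
      (Subgroup.inclusion_injective hW₁G)
  obtain ⟨hcomm, s, hs, hWq⟩ := hmin.elementary hWs
  have hsf : Fact s.Prime := ⟨hs⟩
  have hW₁n : W₁.Normal := hmin.1
  have hUs : ∀ x ∈ U, x ^ s ∈ V₁ := by
    intro x hx
    have h2 := hWq (QuotientGroup.mk' V₁ x) ⟨x, hx, rfl⟩
    rw [← map_pow] at h2
    exact (QuotientGroup.eq_one_iff _).1 h2
  have hL₁n : (L.map (QuotientGroup.mk' V₁)).Normal := hL.map _ (QuotientGroup.mk'_surjective V₁)
  have hcn : (Subgroup.centralizer (W₁ : Set (Γ ⧸ V₁))).Normal := inferInstance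
  -- the quotient acting on `W₁`
  let C₁ : Subgroup (Γ ⧸ V₁) := L.map (QuotientGroup.mk' V₁) ⊓ Subgroup.centralizer (W₁ : Set (Γ ⧸ V₁))
  have hC₁n : C₁.Normal := inferInstance
  let φ : Γ →* (Γ ⧸ V₁) ⧸ C₁ := (QuotientGroup.mk' C₁).comp (QuotientGroup.mk' V₁)
  have hφs : Function.Surjective φ :=
    (QuotientGroup.mk'_surjective C₁).comp (QuotientGroup.mk'_surjective V₁)
  have hφker : ∀ g ∈ L, (∀ y ∈ U, y * g * y⁻¹ * g⁻¹ ∈ V₁) → φ g = 1 := by
    intro g hg hy
    refine (QuotientGroup.eq_one_iff _).2 ⟨⟨g, hg, rfl⟩, Subgroup.mem_centralizer_iff.2 ?_⟩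
    rintro _ ⟨y, hyU, rfl⟩
    have h2 := (QuotientGroup.eq_one_iff _).2 (hy y hyU)
    have h3 : QuotientGroup.mk' V₁ (y * g * y⁻¹ * g⁻¹) = 1 := h2
    rw [map_mul, map_mul, map_mul, map_inv, map_inv, mul_inv_eq_one, mul_inv_eq_iff_eq_mul] at h3
    exact h3
  have hφker' : ∀ g ∈ L, φ g = 1 → ∀ y ∈ U, y * g * y⁻¹ * g⁻¹ ∈ V₁ := by
    intro g hg hg1 y hy
    have h2 := (QuotientGroup.eq_one_iff _).1 hg1
    have h3 := Subgroup.mem_centralizer_iff.1 h2.2 _ ⟨y, hy, rfl⟩
    refine (QuotientGroup.eq_one_iff _).1 ?_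
    show QuotientGroup.mk' V₁ (y * g * y⁻¹ * g⁻¹) = 1
    rw [map_mul, map_mul, map_mul, map_inv, map_inv, h3, mul_inv_cancel_right, mul_inv_cancel]
  set L₂ : Subgroup ((Γ ⧸ V₁) ⧸ C₁) := L.map φ with hL₂
  have hL₂n : L₂.Normal := hL.map _ hφs
  -- `M` centralises `U / V₁`
  have hMU : ⁅U, M⁆ ≤ V₁ := by
    rw [Subgroup.isNilpotent_iff_lowerCentralSeries] at hMn
    obtain ⟨j, hj⟩ := hMn
    exact chief_commutator_le (U₀ := U ⊓ M) (X := ⊥) hUV hM hUM.ge inf_le_left inf_le_right hj.le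
      (by rw [inf_bot_eq]; exact bot_le)
  have hMφ : M.map φ = ⊥ := by
    rw [eq_bot_iff]
    rintro _ ⟨m, hm, rfl⟩
    rw [Subgroup.mem_bot]
    apply hφker m (hML hm)
    intro y hy
    have := hMU (Subgroup.commutator_mem_commutator hy hm)
    rwa [commutatorElement_def] at this
  have hL₂nil : Group.IsNilpotent L₂ := by
    rw [Subgroup.isNilpotent_iff_lowerCentralSeries]
    refine ⟨k, ?_⟩
    rw [hL₂, ← Subgroup.map_lowerCentralSeries, eq_bot_iff, ← hMφ]
    exact Subgroup.map_mono hk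
  -- the action on `W₁`
  let cg : CommGroup W₁ :=
    { (inferInstance : Group W₁) with mul_comm := fun a b => Subtype.ext (hcomm a a.2 b b.2) }
  have hnt : Nontrivial W₁ := (Subgroup.nontrivial_iff_ne_bot W₁).2 hmin.2.1
  have hker : ∀ g ∈ C₁, MulAut.conjNormal (H := W₁) g = 1 := by
    intro g hg
    have hg' := Subgroup.mem_centralizer_iff.1 hg.2
    ext w
    rw [MulAut.conjNormal_apply, ← hg' w w.2, mul_inv_cancel_right]
    rfl
  let κ₂ : (Γ ⧸ V₁) ⧸ C₁ →* MulAut W₁ := QuotientGroup.lift _ (MulAut.conjNormal (H := W₁)) hker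
  have hκ₂ : ∀ g : Γ ⧸ V₁, ∀ w : W₁, ((κ₂ (QuotientGroup.mk' _ g) w : W₁) : Γ ⧸ V₁) = g * w * g⁻¹ :=
    fun g w => MulAut.conjNormal_apply g w
  have hirr₂ : ∀ X : Subgroup W₁, (∀ g, ∀ x ∈ X, κ₂ g x ∈ X) → X = ⊥ ∨ X = ⊤ := by
    intro X hX
    have hXn : (X.map W₁.subtype).Normal := by
      constructor
      rintro _ ⟨x, hx, rfl⟩ g
      exact ⟨κ₂ (QuotientGroup.mk' _ g) x, hX _ x hx, hκ₂ g x⟩
    rcases hmin.2.2 _ hXn (Subgroup.map_subtype_le X) with h1 | h1
    · left
      exact (Subgroup.map_eq_bot_iff_of_injective _ W₁.subtype_injective).1 h1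
    · right
      apply Subgroup.map_injective W₁.subtype_injective
      rw [h1, ← MonoidHom.range_eq_map, Subgroup.range_subtype]
  -- it suffices that `D` centralises `L₂`
  have hD₂ : ∀ x ∈ L₂, ∀ d ∈ D, x * φ d = φ d * x := by
    let X₂ : Subgroup ((Γ ⧸ V₁) ⧸ C₁) := L₂ ⊓ Subgroup.centralizer (D.map φ : Set ((Γ ⧸ V₁) ⧸ C₁))
    have hX₂ : X₂ = L₂ := by
      apply eq_of_sylow_le inf_le_left
      intro r hr
      have hrf : Fact r.Prime := ⟨hr⟩
      by_cases hrs : r = s
      · subst hrs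
        obtain ⟨T⟩ : Nonempty (Sylow r L₂) := inferInstance
        refine ⟨T, ?_⟩
        have hTn := sylow_map_normal hL₂n hL₂nil T
        have hTp : IsPGroup r ((T : Subgroup L₂).map L₂.subtype) := T.isPGroup'.map _
        have h5 := trivial_of_isPGroup (fun w => Subtype.ext (hWq w w.2)) κ₂ hirr₂ _ hTp
        intro x hx
        have h6 := h5 x hx
        have h7 : x ∈ L₂ := Subgroup.map_subtype_le _ hx
        obtain ⟨g, hg, rfl⟩ := h7
        have h8 : φ g = 1 := by
          refine (QuotientGroup.eq_one_iff _).2 ⟨⟨g, hg, rfl⟩, Subgroup.mem_centralizer_iff.2 ?_⟩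
          intro w hw
          have h9 := congrArg Subtype.val (DFunLike.congr_fun h6 (⟨w, hw⟩ : W₁))
          have h10 : (κ₂ (QuotientGroup.mk' _ (QuotientGroup.mk' V₁ g)) (⟨w, hw⟩ : W₁) : Γ ⧸ V₁) = w := h9
          rw [hκ₂] at h10
          exact (mul_inv_eq_iff_eq_mul.1 h10).symm
        rw [h8]
        exact Subgroup.one_mem _
      · obtain ⟨T, hAT⟩ := Cfsg.Agent.Lib.CoprimeHyperplane.exists_invariant_sylow (A := A) (Q := L)
          h.isp (by rw [Subgroup.normalizer_eq_top_iff.2 hL]; exact le_top)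
          (fun hd => h.ndvd (hd.trans (Subgroup.card_dvd_of_le hLG))) r
        set P₀ : Subgroup Γ := (T : Subgroup L).map L.subtype with hP₀
        have hP₀L : P₀ ≤ L := Subgroup.map_subtype_le _
        have hP₀p : IsPGroup r P₀ := T.isPGroup'.map _
        refine ⟨T.mapSurjective (f := φ.subgroupMap L) (φ.subgroupMap_surjective L), ?_⟩
        have hTe : ((T.mapSurjective (f := φ.subgroupMap L) (φ.subgroupMap_surjective L) :
            Sylow r L₂) : Subgroup L₂).map L₂.subtype = P₀.map φ := by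
          rw [Sylow.coe_mapSurjective, Subgroup.map_map, hP₀, Subgroup.map_map]
          rfl
        rw [hTe]
        refine le_inf (Subgroup.map_mono hP₀L) ?_
        rintro _ ⟨x, hx, rfl⟩
        rw [Subgroup.mem_centralizer_iff]
        rintro _ ⟨d, hd, rfl⟩
        -- elements of `⁅P₀, D⁆` centralise `U / V₁`
        by_cases hrp : r = p
        · subst hrp
          have h3 := eq_bot_of_isPGroup hP₀p (fun hd => h.ndvd
            (hd.trans (Subgroup.card_dvd_of_le (hP₀L.trans hLG))))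
          rw [h3] at hx
          have hx1 : x = 1 := Subgroup.mem_bot.1 hx
          rw [hx1, map_one, one_mul, mul_one]
        have hu : ∀ u ∈ (⁅P₀, D⁆ : Subgroup Γ), ∀ y ∈ U, y * u * y⁻¹ * u⁻¹ ∈ V₁ := by
          intro u hu
          have huG : u ∈ G := (hP₀L.trans hLG) (commutator_le_left (hDA.trans hAT) hu)
          let Y : Subgroup Γ := (U ⊓ M) ⊓ (Subgroup.centralizer ({QuotientGroup.mk' V₁ u} :
            Set (Γ ⧸ V₁))).comap (QuotientGroup.mk' V₁)
          have hY : Y = U ⊓ M := by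
            apply eq_of_sylow_le inf_le_left
            intro t ht
            have htf : Fact t.Prime := ⟨ht⟩
            obtain ⟨R⟩ : Nonempty (Sylow t (U ⊓ M : Subgroup Γ)) := inferInstance
            refine ⟨R, ?_⟩
            have hUMnil : Group.IsNilpotent (U ⊓ M : Subgroup Γ) :=
              isNilpotent_of_le (inf_le_right : U ⊓ M ≤ M) hMn
            have hRn := sylow_map_normal (L := U ⊓ M) inferInstance hUMnil R
            have hRp : IsPGroup t ((R : Subgroup (U ⊓ M : Subgroup Γ)).map (U ⊓ M).subtype) :=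
              R.isPGroup'.map _
            have hRUM : (R : Subgroup (U ⊓ M : Subgroup Γ)).map (U ⊓ M).subtype ≤ U ⊓ M :=
              Subgroup.map_subtype_le _
            have hRG : (R : Subgroup (U ⊓ M : Subgroup Γ)).map (U ⊓ M).subtype ≤ G :=
              hRUM.trans (inf_le_left.trans (hUL.trans hLG))
            set R₀ : Subgroup Γ := (R : Subgroup (U ⊓ M : Subgroup Γ)).map (U ⊓ M).subtype
            refine le_inf hRUM ?_
            intro y hy
            rw [Subgroup.mem_comap, Subgroup.mem_centralizer_iff]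
            intro u' hu'
            rw [Set.mem_singleton_iff.1 hu']
            by_cases htr : t = r
            · -- `y ∈ V₁`
              have h3 : y ∈ V₁ := by
                obtain ⟨j, hj⟩ := hRp ⟨y, hy⟩
                have hj' : y ^ t ^ j = 1 := congrArg Subtype.val hj
                refine mem_of_coprime_pow (hUs y (hRUM hy).1) (b := t ^ j)
                  (by rw [hj']; exact V₁.one_mem) ?_
                exact Nat.Coprime.pow_right j ((Nat.coprime_primes hs ht).2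
                  (fun hst => hrs (by rw [← htr, hst])))
              have h4 : QuotientGroup.mk' V₁ y = 1 := (QuotientGroup.eq_one_iff _).2 h3
              rw [h4, one_mul, mul_one]
            by_cases htp : t = p
            · subst htp
              have h3 := eq_bot_of_isPGroup hRp (fun hd => h.ndvd
                (hd.trans (Subgroup.card_dvd_of_le hRG)))
              rw [h3, Subgroup.mem_bot] at hy
              rw [hy, map_one, one_mul, mul_one]
            by_cases htq : t = q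
            · subst htq
              have h3 := trivial_of_isPGroup hW κ hirr _ hRp y hy
              have h4 := hfaith y (hRG hy) h3
              rw [h4, map_one, one_mul, mul_one]
            have h4 := hT Γ A D P₀ R₀ r t F V ρ hP h.isp hr ht hrp htp (fun h5 => htr h5.symm)
              hP₀p hRp hAT (by rw [Subgroup.normalizer_eq_top_iff.2 hRn]; exact le_top)
              (by rw [Subgroup.normalizer_eq_top_iff.2 hRn]; exact le_top)
              (fun x hx => h.fix x ((hP₀L.trans hLG) hx)) (fun x hx => h.fix x (hRG hx))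
              (hF p (fun hd => hqp ((Nat.prime_dvd_prime_iff_eq hq.out hp.out).1 hd)))
              (hF t (fun hd => htq ((Nat.prime_dvd_prime_iff_eq hq.out ht).1 hd).symm)) hρfix u hu y hy
            have h5 := hρ _ _ h4
            have h6 : κ (u * y * u⁻¹ * y⁻¹) = 1 := by
              have h7 : u * y * u⁻¹ * y⁻¹ = (u * y) * (y * u)⁻¹ := by group
              rw [h7, map_mul, map_inv, h5, mul_inv_cancel]
            have h8 : u * y * u⁻¹ * y⁻¹ ∈ G :=
              G.mul_mem (G.mul_mem (G.mul_mem huG (hRG hy)) (G.inv_mem huG)) (G.inv_mem (hRG hy))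
            have h10 := hfaith _ h8 h6
            have h11 : u * y = (u * y * u⁻¹ * y⁻¹) * (y * u) := by group
            rw [h10, one_mul] at h11
            rw [← map_mul, ← map_mul, h11]
          intro y hy
          rw [← hUM] at hy
          obtain ⟨v, hv, y', hy', rfl⟩ := Subgroup.mem_sup_of_normal_left.1 hy
          rw [← hY] at hy'
          have h12 := Subgroup.mem_centralizer_iff.1 (Subgroup.mem_comap.1 hy'.2) _ rfl
          refine (QuotientGroup.eq_one_iff _).1 ?_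
          show QuotientGroup.mk' V₁ (v * y' * u * (v * y')⁻¹ * u⁻¹) = 1
          have h13 : QuotientGroup.mk' V₁ v = 1 := (QuotientGroup.eq_one_iff _).2 hv
          rw [map_mul, map_mul, map_mul, map_mul, map_inv, map_inv, map_mul, h13, one_mul, ← h12,
            mul_inv_cancel_right, mul_inv_cancel]
        have h14 : φ ⁅x, d⁆ = 1 :=
          hφker _ (hP₀L (commutator_le_left (hDA.trans hAT) (Subgroup.commutator_mem_commutator hx hd)))
            (hu _ (Subgroup.commutator_mem_commutator hx hd))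
        rw [map_commutatorElement, commutatorElement_eq_one_iff_mul_comm] at h14
        exact h14.symm
    intro x hx d hd
    rw [← hX₂] at hx
    exact ((Subgroup.mem_centralizer_iff.1 hx.2) _ ⟨d, hd, rfl⟩).symm
  have hL₂bot : L₂ = ⊥ := by
    rw [hL₂, ← hLL, Subgroup.map_commutator, MinAct.commutator_eq_bot_iff]
    rintro x hx _ ⟨d, hd, rfl⟩
    exact hD₂ x hx d hd
  rw [Subgroup.commutator_le]
  intro y hy g hg
  rw [commutatorElement_def]
  apply hφker' g hg _ y hy
  have h15 : φ g ∈ L₂ := ⟨g, hg, rfl⟩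
  rw [hL₂bot] at h15
  exact Subgroup.mem_bot.1 h15

/-- **Height at most two of `⁅G, D⁆`** from the three-step property. -/
theorem height_two {p : ℕ} [hp : Fact p.Prime] {PP : Pr.{u}} (hc : Closed p PP)
    (hT : T3 p PP) : ∀ n : ℕ, ∀ (Γ : Type u) [Group Γ] [Finite Γ] (G A D : Subgroup Γ),
    Nat.card G = n → Cfg p G A → PP Γ A D → ∃ N : Subgroup Γ, N.Normal ∧
      N ≤ (⁅G, D⁆ : Subgroup Γ) ∧ Group.IsNilpotent N ∧
      ∃ k, (⁅G, D⁆ : Subgroup Γ).lowerCentralSeries k ≤ N := by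
  intro n
  induction n using Nat.strong_induction_on with
  | _ n ih =>
  intro Γ _ _ G A D hn h hP
  have hL : (⁅G, D⁆ : Subgroup Γ).Normal := h.commutator_normal (hc.norm Γ A D hP)
  have hLG : (⁅G, D⁆ : Subgroup Γ) ≤ G := commutator_le_left (h.le_normalizer D)
  have hkey : ∀ U V : Subgroup Γ, Chief U V → U ≤ (⁅G, D⁆ : Subgroup Γ) →
      ∃ k, ⁅U, (⁅G, D⁆ : Subgroup Γ).lowerCentralSeries k⁆ ≤ V := by
    intro U V hUV hUL
    have hVn := hUV.2.1
    have hVG : V ≤ G := hUV.2.2.1.le.trans (hUL.trans hLG)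
    have hpV : ¬ p ∣ Nat.card V := fun hd => h.ndvd (hd.trans (Subgroup.card_dvd_of_le hVG))
    have h' := h.map V hVG
    have hP' := hc.quot Γ A D V hpV hP
    have hmin := hUV.isMin
    have hWG : U.map (QuotientGroup.mk' V) ≤ G.map (QuotientGroup.mk' V) :=
      Subgroup.map_mono (hUL.trans hLG)
    obtain ⟨K, hKn, hWK, hKG, hKC, W', _, _, _, q, _, κ, hqp, hWq, hfix, hirr, hfaith⟩ :=
      min_quot h' hmin hWG
    have h'' := h'.map K hKG
    have hpK : ¬ p ∣ Nat.card K := fun hd => h'.ndvd (hd.trans (Subgroup.card_dvd_of_le hKG))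
    have hP'' := hc.quot _ _ _ K hpK hP'
    have hlt : Nat.card ((G.map (QuotientGroup.mk' V)).map (QuotientGroup.mk' K)) < n := by
      have h1 : Nat.card (G.map (QuotientGroup.mk' V)) ≤ n := by
        rw [← hn]
        exact Nat.le_of_dvd Nat.card_pos (Subgroup.card_map_dvd G _)
      refine lt_of_lt_of_le ?_ h1
      refine lt_of_le_of_ne (Nat.le_of_dvd Nat.card_pos (Subgroup.card_map_dvd _ _)) ?_
      intro heq
      have hsurj := (QuotientGroup.mk' K).subgroupMap_surjective (G.map (QuotientGroup.mk' V))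
      have hinj : Function.Injective
          ((QuotientGroup.mk' K).subgroupMap (G.map (QuotientGroup.mk' V))) :=
        ((Nat.bijective_iff_surjective_and_card _).2 ⟨hsurj, heq.symm⟩).1
      apply hmin.2.1
      rw [eq_bot_iff]
      intro w hw
      have h3 : (QuotientGroup.mk' K).subgroupMap (G.map (QuotientGroup.mk' V)) ⟨w, hWG hw⟩ =
          (QuotientGroup.mk' K).subgroupMap (G.map (QuotientGroup.mk' V)) 1 := by
        apply Subtype.ext
        show QuotientGroup.mk' K w = QuotientGroup.mk' K 1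
        rw [map_one]
        exact (QuotientGroup.eq_one_iff w).2 (hWK hw)
      exact congrArg Subtype.val (hinj h3)
    obtain ⟨M, hMn, hML, hMnil, hMk⟩ := ih _ hlt _ _ _ _ rfl h'' hP''
    have hnil := extH hc hT h'' hP'' hqp hWq κ hfix hirr hfaith M hMn hML hMnil hMk
    rw [Subgroup.isNilpotent_iff_lowerCentralSeries] at hnil
    obtain ⟨k, hk⟩ := hnil
    refine ⟨k, ?_⟩
    rw [← Subgroup.map_commutator, ← Subgroup.map_commutator, ← Subgroup.map_lowerCentralSeries,
      ← Subgroup.map_lowerCentralSeries, Subgroup.map_eq_bot_iff, QuotientGroup.ker_mk'] at hk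
    have h5 : (⁅U, (⁅G, D⁆ : Subgroup Γ).lowerCentralSeries k⁆ : Subgroup Γ).map
        (QuotientGroup.mk' V) = ⊥ := by
      rw [Subgroup.map_commutator, Subgroup.commutator_comm,
        Subgroup.commutator_eq_bot_iff_le_centralizer]
      exact hk.trans hKC
    rw [Subgroup.map_eq_bot_iff, QuotientGroup.ker_mk'] at h5
    exact h5
  -- a common `k`
  have hkey' : ∃ k, ∀ U V : Subgroup Γ, Chief U V → U ≤ (⁅G, D⁆ : Subgroup Γ) →
      ⁅U, (⁅G, D⁆ : Subgroup Γ).lowerCentralSeries k⁆ ≤ V := by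
    classical
    have := Fintype.ofFinite (Subgroup Γ)
    let f : Subgroup Γ × Subgroup Γ → ℕ := fun x =>
      if hx : Chief x.1 x.2 ∧ x.1 ≤ (⁅G, D⁆ : Subgroup Γ) then (hkey x.1 x.2 hx.1 hx.2).choose else 0
    refine ⟨Finset.univ.sup f, ?_⟩
    intro U V hUV hUL
    have h1 : f (U, V) ≤ Finset.univ.sup f := Finset.le_sup (Finset.mem_univ _)
    have h2 : f (U, V) = (hkey U V hUV hUL).choose := dif_pos ⟨hUV, hUL⟩
    have h3 := (hkey U V hUV hUL).choose_spec
    rw [← h2] at h3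
    refine (Subgroup.commutator_mono le_rfl ?_).trans h3
    exact Subgroup.lowerCentralSeries_antitone _ h1
  obtain ⟨k, hk⟩ := hkey'
  have hle : (⁅G, D⁆ : Subgroup Γ).lowerCentralSeries k ≤ (⁅G, D⁆ : Subgroup Γ) :=
    Subgroup.lowerCentralSeries_antitone _ (Nat.zero_le k)
  have hkn : ((⁅G, D⁆ : Subgroup Γ).lowerCentralSeries k).Normal := inferInstance
  refine ⟨(⁅G, D⁆ : Subgroup Γ).lowerCentralSeries k, hkn, hle, ?_, k, le_rfl⟩
  apply isNilpotent_of_chief _ hkn
  intro U V hUV hUN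
  exact hk U V hUV (hUN.trans hle)

end Cfsg.Agent.H452.TopH2
end

-- part: H452/Red
section
/-!
# Reduction to irreducible modules

`of_irr` : let `A` be a subgroup of `Γ` whose order is invertible in `F`, `g ^ n = 1` with `n` invertible in `F`.
If `ρ g = 1` for all irreducible `ρ` without nonzero vectors fixed by `A`, then `ρ g = 1` for all `ρ` without nonzero
vectors fixed by `A`.
-/

set_option autoImplicit false

namespace Cfsg.Agent.H452.Red

open Module

universe u

/-- irreducibility, elementary form -/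
def Irr {F : Type*} [Field F] {Γ : Type*} [Group Γ] {V : Type*} [AddCommGroup V] [Module F V]
    (ρ : Representation F Γ V) : Prop :=
  ∀ W : Submodule F V, (∀ g, ∀ w ∈ W, ρ g w ∈ W) → W = ⊥ ∨ W = ⊤

theorem eq_one_of_sq {F : Type*} [Field F] {V : Type*} [AddCommGroup V] [Module F V] (f : End F V)
    {n : ℕ} (hn : (n : F) ≠ 0) (hf : f ^ n = 1) (h : ∀ v, f (f v - v) = f v - v) : f = 1 := by
  have h1 : ∀ (k : ℕ) (v : V), (f ^ k) v = v + (k : F) • (f v - v) := by
    intro k
    induction k with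
    | zero => intro v; simp
    | succ k ih =>
      intro v
      rw [pow_succ', End.mul_apply, ih, map_add, map_smul, h, Nat.cast_succ, add_smul, one_smul]
      abel
  ext v
  have h2 := h1 n v
  rw [hf, End.one_apply] at h2
  have h3 : (n : F) • (f v - v) = 0 := by
    have h4 : v + (n : F) • (f v - v) = v + 0 := by rw [← h2, add_zero]
    exact add_left_cancel h4
  rcases smul_eq_zero.1 h3 with h4 | h4
  · exact absurd h4 hn
  · rw [End.one_apply]; exact sub_eq_zero.1 h4

theorem fixed_quot {F : Type*} [Field F] {Γ : Type*} [Group Γ] (A : Subgroup Γ) [Finite A]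
    (hA : (Nat.card A : F) ≠ 0) {V : Type*} [AddCommGroup V] [Module F V]
    (ρ : Representation F Γ V) (hfix : ∀ v, (∀ a ∈ A, ρ a v = v) → v = 0) (W : Submodule F V)
    {v : V} (hv : ∀ a ∈ A, ρ a v - v ∈ W) : v ∈ W := by
  classical
  have := Fintype.ofFinite A
  have h0 : ∑ a : A, ρ (a : Γ) v = 0 := by
    apply hfix
    intro b hb
    rw [map_sum]
    apply Fintype.sum_equiv (Equiv.mulLeft (⟨b, hb⟩ : A))
    intro a
    rw [← End.mul_apply, ← map_mul]
    rfl
  have h1 : ∑ a : A, (ρ (a : Γ) v - v) ∈ W := Submodule.sum_mem _ (fun a _ => hv a a.2)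
  rw [Finset.sum_sub_distrib, h0, zero_sub, Finset.sum_const, Finset.card_univ,
    ← Nat.card_eq_fintype_card, ← Nat.cast_smul_eq_nsmul F] at h1
  have h2 := Submodule.neg_mem _ h1
  rw [neg_neg] at h2
  have h3 := Submodule.smul_mem W (Nat.card A : F)⁻¹ h2
  rwa [smul_smul, inv_mul_cancel₀ hA, one_smul] at h3

theorem of_irr {F : Type*} [Field F] {Γ : Type*} [Group Γ] (A : Subgroup Γ) [Finite A]
    (hA : (Nat.card A : F) ≠ 0) (g : Γ) {n : ℕ} (hn : (n : F) ≠ 0) (hg : g ^ n = 1)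
    (h : ∀ (V : Type u) [AddCommGroup V] [Module F V] [FiniteDimensional F V]
      (ρ : Representation F Γ V), Nontrivial V → Irr ρ →
      (∀ v, (∀ a ∈ A, ρ a v = v) → v = 0) → ρ g = 1) :
    ∀ (k : ℕ) (V : Type u) [AddCommGroup V] [Module F V] [FiniteDimensional F V]
      (ρ : Representation F Γ V), finrank F V = k →
      (∀ v, (∀ a ∈ A, ρ a v = v) → v = 0) → ρ g = 1 := by
  intro k
  induction k using Nat.strong_induction_on with
  | _ k ih =>
  intro V _ _ _ ρ hk hfix
  by_cases hV : Subsingleton V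
  · exact LinearMap.ext fun v => Subsingleton.elim _ _
  rw [not_subsingleton_iff_nontrivial] at hV
  by_cases hirr : Irr ρ
  · exact h V ρ hV hirr hfix
  unfold Irr at hirr
  push Not at hirr
  obtain ⟨W, hW, hW1, hW2⟩ := hirr
  have hc : ∀ g, W ≤ W.comap (ρ g) := fun g w hw => hW g w hw
  have h1 : finrank F W < finrank F V := Submodule.finrank_lt hW2
  have h2 : finrank F (V ⧸ W) < finrank F V := by
    have h3 := Submodule.finrank_quotient_add_finrank W
    have h4 : 0 < finrank F W := by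
      have : Nontrivial W := Submodule.nontrivial_iff_ne_bot.2 hW1
      exact Module.finrank_pos
    omega
  have e1 := ih _ (hk ▸ h1) W (ρ.subrepresentation W hc) rfl (by
    intro w hw
    apply Subtype.ext
    apply hfix
    intro a ha
    exact congrArg Subtype.val (hw a ha))
  have e2 := ih _ (hk ▸ h2) (V ⧸ W) (ρ.quotient W hc) rfl (by
    intro w hw
    obtain ⟨v, rfl⟩ := Submodule.Quotient.mk_surjective W w
    rw [Submodule.Quotient.mk_eq_zero]
    apply fixed_quot A hA ρ hfix W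
    intro a ha
    rw [← Submodule.Quotient.eq]
    exact hw a ha)
  apply eq_one_of_sq (ρ g) hn (by rw [← map_pow, hg, map_one])
  intro v
  have h3 : ρ g v - v ∈ W := by
    rw [← Submodule.Quotient.eq]
    exact LinearMap.congr_fun e2 (Submodule.Quotient.mk v)
  have h4 := LinearMap.congr_fun e1 ⟨_, h3⟩
  exact congrArg Subtype.val h4

end Cfsg.Agent.H452.Red
end

-- part: H452/Ward
section
/-!
# The three-step property for elementary abelian groups of order `p ^ 2`
-/

set_option autoImplicit false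

namespace Cfsg.Agent.H452.Ward

open Module
open scoped commutatorElement
open Cfsg.Agent.OddOrderLocal.Thm34Weights
open Cfsg.Agent.Lib.CoprimeCommutator
open Cfsg.Agent.H452.Base Cfsg.Agent.H452.TopN Cfsg.Agent.H452.MinAct Cfsg.Agent.H452.Orbit
open Cfsg.Agent.H452.TopH2 Cfsg.Agent.H452.Red

attribute [local instance] wtAction

universe u

/-- `D = A` is elementary abelian of order `p ^ 2`. -/
def WP (p : ℕ) : Pr.{u} := fun _ _ A D =>
  D = A ∧ Cfsg.IsElementaryAbelian p A ∧ Nat.card A = p ^ 2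

theorem closed_wp (p : ℕ) [hp : Fact p.Prime] : Closed p (WP.{u} p) where
  le := by
    rintro Γ _ A D ⟨rfl, _, _⟩
    exact le_rfl
  norm := by
    rintro Γ _ A D ⟨rfl, _, _⟩
    exact Subgroup.le_normalizer
  quot := by
    rintro Γ _ _ A D N _ hN ⟨rfl, ⟨hc, he⟩, hcard⟩
    refine ⟨rfl, ⟨?_, ?_⟩, ?_⟩
    · refine ⟨⟨?_⟩⟩
      rintro ⟨_, a, ha, rfl⟩ ⟨_, b, hb, rfl⟩
      apply Subtype.ext
      show QuotientGroup.mk' N a * QuotientGroup.mk' N b = QuotientGroup.mk' N b * QuotientGroup.mk' N a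
      rw [← map_mul, ← map_mul]
      congr 1
      exact congrArg Subtype.val (hc.1.comm (⟨a, ha⟩ : D) ⟨b, hb⟩)
    · rintro _ ⟨a, ha, rfl⟩
      rw [← map_pow, he a ha, map_one]
    · rw [← hcard]
      have hinj : Function.Injective ((QuotientGroup.mk' N).subgroupMap D) := by
        rw [injective_iff_map_eq_one]
        rintro ⟨a, ha⟩ h1
        have h2 : a ∈ N := (QuotientGroup.eq_one_iff a).1 (congrArg Subtype.val h1)
        apply Subtype.ext
        show a = 1
        have h3 : orderOf a ∣ p := orderOf_dvd_of_pow_eq_one (he a ha)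
        rcases (Nat.dvd_prime hp.out).1 h3 with h4 | h4
        · exact orderOf_eq_one_iff.1 h4
        · exfalso
          apply hN
          rw [← h4]
          have := orderOf_dvd_natCard (⟨a, h2⟩ : N)
          rwa [Subgroup.orderOf_mk] at this
      exact (Nat.card_congr (Equiv.ofBijective _ ⟨hinj,
        (QuotientGroup.mk' N).subgroupMap_surjective D⟩)).symm

theorem isSolvable_of_isPGroup {Γ : Type*} [Group Γ] [Finite Γ] {r : ℕ} [Fact r.Prime] {P : Subgroup Γ}
    (hP : IsPGroup r P) : Group.IsSolvable P := by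
  have := hP.isNilpotent
  infer_instance

/-- the product of an `r`-group and a normal `s`-group is solvable -/
theorem isSolvable_sup {Γ : Type*} [Group Γ] [Finite Γ] {r s : ℕ} [Fact r.Prime] [Fact s.Prime]
    {P Q : Subgroup Γ} (hP : IsPGroup r P) (hQ : IsPGroup s Q) (hQn : Q.Normal) :
    Group.IsSolvable (P ⊔ Q : Subgroup Γ) := by
  have h1 : Group.IsSolvable Q := isSolvable_of_isPGroup hQ
  have h2 : Group.IsSolvable (P.map (QuotientGroup.mk' Q)) := isSolvable_of_isPGroup (hP.map _)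
  let f : Q →* (P ⊔ Q : Subgroup Γ) := Subgroup.inclusion le_sup_right
  let g : (P ⊔ Q : Subgroup Γ) →* (P.map (QuotientGroup.mk' Q)) :=
    ((QuotientGroup.mk' Q).comp (P ⊔ Q : Subgroup Γ).subtype).codRestrict _ (by
      rintro ⟨x, hx⟩
      obtain ⟨y, hy, z, hz, rfl⟩ := Subgroup.mem_sup_of_normal_right.1 hx
      refine ⟨y, hy, ?_⟩
      show _ = QuotientGroup.mk' Q (y * z)
      rw [map_mul]
      have : QuotientGroup.mk' Q z = 1 := (QuotientGroup.eq_one_iff z).2 hz
      rw [this, mul_one])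
  apply Group.isSolvable_of_ker_le_range f g
  rintro ⟨x, hx⟩ hx1
  have h3 : QuotientGroup.mk' Q x = 1 := congrArg Subtype.val hx1
  have h4 : x ∈ Q := (QuotientGroup.eq_one_iff x).1 h3
  exact ⟨⟨x, h4⟩, rfl⟩

theorem card_eq_of {p : ℕ} (hp : p.Prime) {n : ℕ} (h : n ∣ p ^ 2) (h1 : n ≠ 1) (h2 : n ≠ p ^ 2) :
    n = p := by
  obtain ⟨k, hk, rfl⟩ := (Nat.dvd_prime_pow hp).1 h
  have h3 : k ≠ 0 := by rintro rfl; exact h1 (pow_zero p)
  have h4 : k ≠ 2 := by rintro rfl; exact h2 rfl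
  have h5 : k = 1 := by omega
  rw [h5, pow_one]

section core

variable {p : ℕ} [hp : Fact p.Prime] {F : Type*} [Field F] [IsAlgClosed F] {Γ : Type*} [Group Γ]
  [Finite Γ] {V : Type*} [AddCommGroup V] [Module F V] [FiniteDimensional F V]

/-- stabilisers in `A` are constant on `P`-orbits of weights -/
theorem stab_smul {ρ : Representation F Γ V} {Z A P : Subgroup Γ} [Z.Normal]
    (hA : IsPGroup p A) (hpP : ¬ p ∣ Nat.card P) (hAP : A ≤ Subgroup.normalizer (P : Set Γ))
    (hst : ∀ χ : Z → F, wt ρ Z χ ≠ ⊥ → Nat.card (stab Z A χ) = p) {χ : Z → F}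
    (hχ : wt ρ Z χ ≠ ⊥) {x : Γ} (hx : x ∈ P) : stab Z A (x • χ) = stab Z A χ := by
  -- the stabiliser of the `P`-orbit
  let H : (Z → F) → Subgroup Γ := fun χ =>
    { carrier := {a | a ∈ A ∧ ∃ y ∈ P, a • χ = y • χ}
      mul_mem' := by
        rintro a b ⟨ha, y, hy, hay⟩ ⟨hb, y', hy', hby⟩
        refine ⟨A.mul_mem ha hb, (a * y' * a⁻¹) * y,
          P.mul_mem (conj_of_le_normalizer hAP ha hy') hy, ?_⟩
        rw [mul_smul, hby, ← mul_smul, mul_smul _ y, ← hay, ← mul_smul]
        congr 1; group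
      one_mem' := ⟨A.one_mem, 1, P.one_mem, rfl⟩
      inv_mem' := by
        rintro a ⟨ha, y, hy, hay⟩
        refine ⟨A.inv_mem ha, a⁻¹ * y⁻¹ * a⁻¹⁻¹,
          conj_of_le_normalizer hAP (A.inv_mem ha) (P.inv_mem hy), ?_⟩
        have h1 : χ = a⁻¹ • (y • χ) := by rw [← hay, inv_smul_smul]
        have h2 : a⁻¹ • χ = (a⁻¹ * y⁻¹ * a⁻¹⁻¹) • (a⁻¹ • (y • χ)) := by
          rw [← mul_smul, ← mul_smul]
          congr 1; group
        rw [← h1] at h2
        exact h2 }
  have hH : ∀ (χ : Z → F) (a : Γ), a ∈ H χ ↔ a ∈ A ∧ ∃ y ∈ P, a • χ = y • χ := fun _ _ => Iff.rfl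
  have key : ∀ χ : Z → F, wt ρ Z χ ≠ ⊥ → stab Z A χ = H χ := by
    intro χ hχ
    have hle : stab Z A χ ≤ H χ := fun a ha => ⟨ha.1, 1, P.one_mem, by rw [ha.2, one_smul]⟩
    let O : Set (Z → F) := MulAction.orbit P χ
    have hfinO : Finite O := (Set.finite_range (fun y : P => y • χ)).to_subtype
    let act : MulAction (H χ) O :=
      { smul := fun a ψ => ⟨(a : Γ) • ψ.1, by
          obtain ⟨ψ, ⟨y, rfl⟩⟩ := ψ
          obtain ⟨a, ha, y', hy', hay⟩ := a
          refine ⟨⟨(a * y * a⁻¹) * y', P.mul_mem (conj_of_le_normalizer hAP ha y.2) hy'⟩, ?_⟩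
          show ((a * y * a⁻¹) * y') • χ = a • (y • χ)
          rw [mul_smul, ← hay, ← mul_smul]
          show _ = a • ((y : Γ) • χ)
          rw [← mul_smul]
          congr 1; group⟩
        one_smul := fun ψ => Subtype.ext (one_smul Γ ψ.1)
        mul_smul := fun a b ψ => Subtype.ext (mul_smul (a : Γ) (b : Γ) ψ.1) }
    have hcard : ¬ p ∣ Nat.card O := by
      intro hd
      apply hpP
      have h1 : Nat.card O ∣ Nat.card P := by
        have h2 := Nat.card_congr (MulAction.orbitEquivQuotientStabilizer P χ)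
        show Nat.card (MulAction.orbit P χ) ∣ _
        rw [h2]
        exact Subgroup.card_quotient_dvd_card _
      exact hd.trans h1
    have hHp : IsPGroup p (H χ) := hA.to_le (fun a ha => ha.1)
    obtain ⟨⟨ν, hν⟩, hfix⟩ := hHp.nonempty_fixed_point_of_prime_not_dvd_card O hcard
    obtain ⟨y, hy⟩ := hν
    have hν' : (y : Γ) • χ = ν := hy
    have h2 : H χ ≤ stab Z A ν := by
      intro a ha
      refine ⟨ha.1, ?_⟩
      exact congrArg Subtype.val (hfix ⟨a, ha⟩)
    have h3 : Nat.card (stab Z A ν) = p := by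
      apply hst
      rw [← hν']
      exact wt_smul_ne_bot hχ _
    apply Subgroup.eq_of_le_of_card_ge hle
    rw [hst χ hχ, ← h3]
    exact Subgroup.card_le_of_le h2
  rw [key _ (wt_smul_ne_bot hχ x), key _ hχ]
  have hle : ∀ (χ : Z → F) (x : Γ), x ∈ P → H χ ≤ H (x • χ) := by
    intro χ x hx a ha
    obtain ⟨ha, y, hy, hay⟩ := ha
    refine ⟨ha, (a * x * a⁻¹) * y * x⁻¹,
      P.mul_mem (P.mul_mem (conj_of_le_normalizer hAP ha hx) hy) (P.inv_mem hx), ?_⟩
    rw [← mul_smul, ← mul_smul, inv_mul_cancel_right, mul_smul _ y, ← hay, ← mul_smul]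
    congr 1; group
  apply le_antisymm
  · have h1 := hle (x • χ) x⁻¹ (P.inv_mem hx)
    rwa [inv_smul_smul] at h1
  · exact hle χ x hx

theorem ward_core (ρ : Representation F Γ V) {A P Q : Subgroup Γ} {r s : ℕ} (hr : r.Prime)
    (hs : s.Prime) (hrp : r ≠ p) (hsp : s ≠ p) (hrs : r ≠ s) (hPr : IsPGroup r P)
    (hQs : IsPGroup s Q) (hgen : P ⊔ Q ⊔ A = ⊤) (hA : Cfsg.IsElementaryAbelian p A)
    (hA2 : Nat.card A = p ^ 2) (hAP : A ≤ Subgroup.normalizer (P : Set Γ)) (hQn : Q.Normal)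
    (hfP : ∀ x ∈ P, (∀ a ∈ A, a * x = x * a) → x = 1)
    (hfQ : ∀ x ∈ Q, (∀ a ∈ A, a * x = x * a) → x = 1) (hpF : (p : F) ≠ 0) (hsF : (s : F) ≠ 0)
    (hV : ∀ v, (∀ a ∈ A, ρ a v = v) → v = 0) (hnt : Nontrivial V) (hirr : Irr ρ)
    (hfaith : ∀ y ∈ Q, ρ y = 1 → y = 1) : ∀ u ∈ P, ∀ y ∈ Q, u * y = y * u := by
  classical
  have hrf : Fact r.Prime := ⟨hr⟩
  have hsf : Fact s.Prime := ⟨hs⟩
  by_cases hQ1 : Q = ⊥
  · intro u _ y hy
    rw [hQ1, Subgroup.mem_bot] at hy
    rw [hy, mul_one, one_mul]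
  obtain ⟨hAc, hAe⟩ := hA
  have hAcomm : ∀ a ∈ A, ∀ b ∈ A, a * b = b * a := fun a ha b hb =>
    congrArg Subtype.val (hAc.1.comm (⟨a, ha⟩ : A) ⟨b, hb⟩)
  have hAp : IsPGroup p A := IsPGroup.of_card hA2
  have hAF : (Nat.card A : F) ≠ 0 := T2.cast_card_ne_zero hpF hAp
  have hAtop : ∀ H : Subgroup Γ, H.Normal → A ≤ Subgroup.normalizer (H : Set Γ) := by
    intro H hH
    rw [Subgroup.normalizer_eq_top_iff.2 hH]; exact le_top
  have hpnd : ∀ {H : Subgroup Γ} {t : ℕ}, t.Prime → t ≠ p → IsPGroup t H → ¬ p ∣ Nat.card H := by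
    intro H t ht htp hH hd
    have : Fact t.Prime := ⟨ht⟩
    obtain ⟨k, hk⟩ := IsPGroup.iff_card.1 hH
    rw [hk] at hd
    exact htp ((Nat.prime_dvd_prime_iff_eq hp.out ht).1 (hp.out.dvd_of_dvd_pow hd)).symm
  -- the centre of a nontrivial `s`-subgroup
  have hcenter : ∀ Y : Subgroup Γ, IsPGroup s Y → Y ⊓ Subgroup.centralizer (Y : Set Γ) = ⊥ → Y = ⊥ := by
    intro Y hY hY1
    by_contra hne
    have : Nontrivial Y := (Subgroup.nontrivial_iff_ne_bot Y).2 hne
    have h1 := hY.bot_lt_center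
    apply h1.ne'
    rw [eq_bot_iff]
    intro z hz
    rw [Subgroup.mem_bot]
    apply Subtype.ext
    have h2 : (z : Γ) ∈ Y ⊓ Subgroup.centralizer (Y : Set Γ) := by
      rw [mem_inf_centralizer]
      refine ⟨z.2, fun y hy => ?_⟩
      exact (congrArg Subtype.val (Subgroup.mem_center_iff.1 hz ⟨y, hy⟩)).symm
    rw [hY1, Subgroup.mem_bot] at h2
    exact h2
  set Z : Subgroup Γ := Q ⊓ Subgroup.centralizer (Q : Set Γ) with hZ
  have hZn : Z.Normal := inferInstance
  have hZQ : Z ≤ Q := inf_le_left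
  have hZ1 : Z ≠ ⊥ := fun h => hQ1 (hcenter Q hQs h)
  have hZs : IsPGroup s Z := hQs.to_le hZQ
  have hZc : ∀ z ∈ Z, ∀ x ∈ Q, z * x = x * z := fun z hz => (mem_inf_centralizer.1 hz).2
  have hZab : ∀ a ∈ Z, ∀ b ∈ Z, a * b = b * a := fun a ha b hb => hZc a ha b (hZQ hb)
  have hZF : (Nat.card Z : F) ≠ 0 := T2.cast_card_ne_zero hsF hZs
  -- all stabilisers have order `p`
  have hst : ∀ χ : Z → F, wt ρ Z χ ≠ ⊥ → Nat.card (stab Z A χ) = p := by
    intro χ hχ
    apply card_eq_of hp.out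
    · rw [← hA2]
      exact Subgroup.card_dvd_of_le stab_le
    · intro h1
      exact stab_ne_bot ρ Z hZF hZab A hAF hV hχ (Subgroup.card_eq_one.1 h1)
    · intro h1
      have h2 : stab Z A χ = A := Subgroup.eq_of_le_of_card_ge stab_le (by rw [h1, hA2])
      have h3 : ∀ z : Z, χ z = 1 := by
        let T : Subgroup Γ :=
          { carrier := {x | ∃ hx : x ∈ Z, χ ⟨x, hx⟩ = 1}
            mul_mem' := by
              rintro a b ⟨ha, ha'⟩ ⟨hb, hb'⟩
              refine ⟨Z.mul_mem ha hb, ?_⟩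
              have := wt_mul hχ (⟨a, ha⟩ : Z) ⟨b, hb⟩
              rw [ha', hb', mul_one] at this
              exact this
            one_mem' := ⟨Z.one_mem, wt_one hχ⟩
            inv_mem' := by
              rintro a ⟨ha, ha'⟩
              refine ⟨Z.inv_mem ha, ?_⟩
              have := wt_mul hχ (⟨a, ha⟩ : Z) ⟨a⁻¹, Z.inv_mem ha⟩
              rw [ha', one_mul] at this
              rw [← this]
              have h5 : (⟨a, ha⟩ : Z) * ⟨a⁻¹, Z.inv_mem ha⟩ = 1 := Subtype.ext (mul_inv_cancel a)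
              rw [h5, wt_one hχ] }
        have hT : ⁅Z, A⁆ ≤ T := by
          rw [Subgroup.commutator_le]
          intro z hz a ha
          have h4 : a * z⁻¹ * a⁻¹ ∈ Z := hZn.conj_mem _ (Z.inv_mem hz) a
          have h5 : ⁅z, a⁆ = z * (a * z⁻¹ * a⁻¹) := by rw [commutatorElement_def]; group
          rw [h5]
          refine ⟨Z.mul_mem hz h4, ?_⟩
          have h6 := wt_mul hχ (⟨z, hz⟩ : Z) ⟨a * z⁻¹ * a⁻¹, h4⟩
          have h7 : χ ⟨a * z⁻¹ * a⁻¹, h4⟩ = χ ⟨z⁻¹, Z.inv_mem hz⟩ := by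
            have h8 : a ∈ stab Z A χ := by rw [h2]; exact ha
            have h9 := congrFun h8.2 ⟨a * z⁻¹ * a⁻¹, h4⟩
            rw [wt_smul_def] at h9
            rw [← h9]
            congr 1
            apply Subtype.ext
            rw [MulAut.conjNormal_apply]
            group
          have h10 := wt_mul hχ (⟨z, hz⟩ : Z) ⟨z⁻¹, Z.inv_mem hz⟩
          have h11 : (⟨z, hz⟩ : Z) * ⟨z⁻¹, Z.inv_mem hz⟩ = 1 := Subtype.ext (mul_inv_cancel z)
          rw [h11, wt_one hχ] at h10
          rw [h7, ← h10] at h6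
          exact h6
        intro z
        obtain ⟨m, hm, c, hc, hzc⟩ := exists_commutator_mul_fixed_of_isPGroup p A Z hAp
          (hAtop Z hZn) (hpnd hs hsp hZs) z z.2
        have h4 : c = 1 := by
          apply hfQ c (hZQ hc.1)
          intro a ha
          exact (Subgroup.mem_centralizer_iff.1 hc.2) a ha
        rw [h4, mul_one] at hzc
        obtain ⟨hm', hm''⟩ := hT hm
        rw [← hm'']
        congr 1
        exact Subtype.ext hzc
      -- the fixed space of `Z`
      let E : Submodule F V :=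
        { carrier := {v | ∀ z ∈ Z, ρ z v = v}
          add_mem' := fun {a b} ha hb z hz => by rw [map_add, ha z hz, hb z hz]
          zero_mem' := fun z _ => map_zero _
          smul_mem' := fun c a ha z hz => by rw [map_smul, ha z hz] }
      have hE : ∀ g, ∀ w ∈ E, ρ g w ∈ E := by
        intro g w hw z hz
        have h4 : z * g = g * (g⁻¹ * z * g⁻¹⁻¹) := by group
        rw [← End.mul_apply, ← map_mul, h4, map_mul, End.mul_apply, hw _ (hZn.conj_mem z hz g⁻¹)]
      rcases hirr E hE with h4 | h4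
      · apply hχ
        rw [eq_bot_iff, ← h4]
        intro v hv z hz
        rw [mem_wt] at hv
        have h5 := hv ⟨z, hz⟩
        rw [h3, one_smul] at h5
        exact h5
      · apply hZ1
        rw [eq_bot_iff]
        intro z hz
        rw [Subgroup.mem_bot]
        apply hfaith z (hZQ hz)
        ext v
        have h5 : v ∈ E := by rw [h4]; trivial
        exact h5 z hz
  -- a weight
  obtain ⟨χ₀, hχ₀⟩ : ∃ χ : Z → F, wt ρ Z χ ≠ ⊥ := by
    by_contra hcon
    push Not at hcon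
    have h1 := iSup_wt ρ Z hZF hZab
    have h2 : ⨆ χ : Z → F, wt ρ Z χ = ⊥ := by
      rw [iSup_eq_bot]; exact hcon
    rw [h2] at h1
    exact bot_ne_top h1
  -- all stabilisers of conjugates are equal
  have hall : ∀ g : Γ, ∀ χ : Z → F, wt ρ Z χ ≠ ⊥ → stab Z A (g • χ) = stab Z A χ := by
    let T : Subgroup Γ :=
      { carrier := {g | ∀ χ : Z → F, wt ρ Z χ ≠ ⊥ → stab Z A (g • χ) = stab Z A χ}
        mul_mem' := by
          intro a b ha hb χ hχ
          rw [mul_smul, ha _ (wt_smul_ne_bot hχ b), hb χ hχ]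
        one_mem' := fun χ _ => by rw [one_smul]
        inv_mem' := by
          intro a ha χ hχ
          have h1 := ha (a⁻¹ • χ) (wt_smul_ne_bot hχ _)
          rw [smul_inv_smul] at h1
          exact h1.symm }
    have hT : T = ⊤ := by
      rw [eq_top_iff, ← hgen]
      refine sup_le (sup_le ?_ ?_) ?_
      · intro x hx χ hχ
        exact stab_smul hAp (hpnd hr hrp hPr) hAP hst hχ hx
      · intro x hx χ hχ
        have h1 : x • χ = χ := by
          funext z
          rw [wt_smul_def]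
          congr 1
          apply Subtype.ext
          rw [MulAut.conjNormal_apply, ← hZc z z.2 x⁻¹ (Q.inv_mem hx), mul_inv_cancel_right]
        rw [h1]
      · intro x hx χ _
        have h1 : ∀ (x : Γ) (χ : Z → F), x ∈ A → stab Z A χ ≤ stab Z A (x • χ) := by
          intro x χ hx a ha
          refine ⟨ha.1, ?_⟩
          rw [← mul_smul, hAcomm a ha.1 x hx, mul_smul, ha.2]
        apply le_antisymm
        · have h2 := h1 x⁻¹ (x • χ) (A.inv_mem hx)
          rwa [inv_smul_smul] at h2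
        · exact h1 x χ hx
    intro g
    have : g ∈ T := by rw [hT]; trivial
    exact this
  set B : Subgroup Γ := stab Z A χ₀ with hB
  have hBA : B ≤ A := stab_le
  have hBcard : Nat.card B = p := hst χ₀ hχ₀
  have hBF : (Nat.card B : F) ≠ 0 := by rw [hBcard]; exact hpF
  -- `B` has no fixed vectors
  have hfixB : ∀ v, (∀ b ∈ B, ρ b v = v) → v = 0 := by
    have := Fintype.ofFinite B
    let e : End F V := ∑ b : B, ρ (b : Γ)
    have he : ∀ v, ∀ b ∈ B, ρ b (e v) = e v := by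
      intro v b hb
      show ρ b ((∑ b : B, ρ (b : Γ)) v) = (∑ b : B, ρ (b : Γ)) v
      rw [LinearMap.sum_apply, map_sum]
      apply Fintype.sum_equiv (Equiv.mulLeft (⟨b, hb⟩ : B))
      intro a
      rw [← End.mul_apply, ← map_mul]
      rfl
    have hU : ⨆ g : Γ, wt ρ Z (g • χ₀) = ⊤ := by
      have h1 : ∀ g, ∀ w ∈ ⨆ g : Γ, wt ρ Z (g • χ₀), ρ g w ∈ ⨆ g : Γ, wt ρ Z (g • χ₀) := by
        intro g
        have h2 : ⨆ g : Γ, wt ρ Z (g • χ₀) ≤ (⨆ g : Γ, wt ρ Z (g • χ₀)).comap (ρ g) := by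
          apply iSup_le
          intro h w hw
          rw [Submodule.mem_comap]
          have h3 := smul_mem_wt hw g
          rw [← mul_smul] at h3
          exact (le_iSup (fun g : Γ => wt ρ Z (g • χ₀)) (g * h)) h3
        exact h2
      rcases hirr _ h1 with h2 | h2
      · exfalso
        apply hχ₀
        rw [eq_bot_iff, ← h2]
        have h3 := le_iSup (fun g : Γ => wt ρ Z (g • χ₀)) 1
        rwa [one_smul] at h3
      · exact h2
    have he0 : e = 0 := by
      have h1 : (⊤ : Submodule F V) ≤ LinearMap.ker e := by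
        rw [← hU]
        apply iSup_le
        intro g v hv
        rw [LinearMap.mem_ker]
        apply eq_zero_of_stab_fixed ρ Z hZF hZab A hAF hV (χ := g • χ₀)
        · show (∑ b : B, ρ (b : Γ)) v ∈ _
          rw [LinearMap.sum_apply]
          apply Submodule.sum_mem
          intro b _
          have h2 := smul_mem_wt hv (b : Γ)
          have h3 : (b : Γ) ∈ stab Z A (g • χ₀) := by
            rw [hall g χ₀ hχ₀]; exact b.2
          rwa [h3.2] at h2
        · intro a ha ha'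
          apply he
          have h3 : a ∈ stab Z A (g • χ₀) := ⟨ha, ha'⟩
          rw [hall g χ₀ hχ₀] at h3
          exact h3
      ext v
      exact h1 (Submodule.mem_top (x := v))
    intro v hv
    have h1 : e v = (Nat.card B : F) • v := by
      show (∑ b : B, ρ (b : Γ)) v = _
      rw [LinearMap.sum_apply]
      have h2 : ∀ b ∈ (Finset.univ : Finset B), ρ (b : Γ) v = v := fun b _ => hv b b.2
      rw [Finset.sum_congr rfl h2, Finset.sum_const, Finset.card_univ, ← Nat.card_eq_fintype_card,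
        Nat.cast_smul_eq_nsmul]
    rw [he0, LinearMap.zero_apply] at h1
    rcases smul_eq_zero.1 h1.symm with h2 | h2
    · exact absurd h2 hBF
    · exact h2
  -- subgroups of order `p` different from `B` have no fixed points in `Q`
  have hB' : ∀ B' : Subgroup Γ, B' ≤ A → Nat.card B' = p → B' ≠ B →
      Q ⊓ Subgroup.centralizer (B' : Set Γ) = ⊥ := by
    intro B' hB'A hB'c hne
    have hsup : B ⊔ B' = A := by
      have h1 : B ⊔ B' ≤ A := sup_le hBA hB'A
      apply Subgroup.eq_of_le_of_card_ge h1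
      have h2 : Nat.card (B ⊔ B' : Subgroup Γ) ∣ p ^ 2 := by
        rw [← hA2]; exact Subgroup.card_dvd_of_le h1
      by_contra h3
      have h4 : Nat.card (B ⊔ B' : Subgroup Γ) = p := by
        apply card_eq_of hp.out h2
        · intro h5
          have h6 := Subgroup.card_eq_one.1 h5
          have h7 : B = ⊥ := by rw [eq_bot_iff, ← h6]; exact le_sup_left
          rw [h7, Subgroup.card_bot] at hBcard
          exact hp.out.one_lt.ne hBcard
        · intro h5
          apply h3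
          rw [h5, hA2]
      have h5 : B = B ⊔ B' := Subgroup.eq_of_le_of_card_ge le_sup_left (by rw [h4, hBcard])
      have h6 : B' = B ⊔ B' := Subgroup.eq_of_le_of_card_ge le_sup_right (by rw [h4, hB'c])
      exact hne (h6.trans h5.symm)
    apply hcenter _ (hQs.to_le inf_le_left)
    set Y : Subgroup Γ := Q ⊓ Subgroup.centralizer (B' : Set Γ) with hY
    have hAB' : A ≤ Subgroup.normalizer (B' : Set Γ) := by
      apply le_normalizer_of_conj
      intro a ha x hx
      rw [hAcomm a ha x (hB'A hx), mul_inv_cancel_right]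
      exact hx
    have hAY : A ≤ Subgroup.normalizer (Y : Set Γ) :=
      le_normalizer_inf (hAtop Q hQn) (le_normalizer_centralizer hAB')
    set N : Subgroup Γ := Y ⊓ Subgroup.centralizer (Y : Set Γ) with hN
    have hAN : A ≤ Subgroup.normalizer (N : Set Γ) :=
      le_normalizer_inf hAY (le_normalizer_centralizer hAY)
    have hNQ : N ≤ Q := inf_le_left.trans inf_le_left
    have hNF : (Nat.card N : F) ≠ 0 := T2.cast_card_ne_zero hsF (hQs.to_le hNQ)
    have hNab : ∀ a ∈ N, ∀ b ∈ N, a * b = b * a := fun a ha b hb =>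
      (mem_inf_centralizer.1 ha).2 b (inf_le_left (a := Y) hb)
    rw [eq_bot_iff]
    intro x hx
    rw [Subgroup.mem_bot]
    apply hfQ x (hNQ hx)
    intro a ha
    -- `x` is centralised by `B` and `B'`
    have h1 : B ⊔ B' ≤ Subgroup.centralizer ({x} : Set Γ) := by
      apply sup_le
      · intro b hb
        rw [Subgroup.mem_centralizer_iff]
        intro x' hx'
        rw [Set.mem_singleton_iff.1 hx']
        have h2 := comm_of_min ρ N hNF hNab B hBF (hBA.trans hAN) hfixB hb (by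
          intro H hHB hH1
          have h3 : Nat.card H ∣ p := by rw [← hBcard]; exact Subgroup.card_dvd_of_le hHB
          rcases (Nat.dvd_prime hp.out).1 h3 with h4 | h4
          · exact absurd (Subgroup.card_eq_one.1 h4) hH1
          · have h5 : H = B := Subgroup.eq_of_le_of_card_ge hHB (by rw [h4, hBcard])
            rw [h5]; exact hb) x hx
        have h3 : b * x * b⁻¹ * x⁻¹ = 1 := by
          apply hfaith
          · exact Q.mul_mem (hQn.conj_mem x (hNQ hx) b) (Q.inv_mem (hNQ hx))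
          · have h4 : b * x * b⁻¹ * x⁻¹ = (b * x) * (x * b)⁻¹ := by group
            rw [h4, map_mul, h2, ← map_mul, mul_inv_cancel, map_one]
        have h4 : b * x = (b * x * b⁻¹ * x⁻¹) * (x * b) := by group
        rw [h4, h3, one_mul]
      · intro b hb
        rw [Subgroup.mem_centralizer_iff]
        intro x' hx'
        rw [Set.mem_singleton_iff.1 hx']
        exact (mem_inf_centralizer.1 (inf_le_left (a := Y) hx)).2 b hb
    rw [hsup] at h1
    exact ((Subgroup.mem_centralizer_iff.1 (h1 ha)) x rfl).symm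
  -- `B` centralises `Q`
  have hA1 : A ≠ ⊥ := by
    rintro rfl
    rw [Subgroup.card_bot] at hA2
    have := hp.out.one_lt
    nlinarith
  have hBQ : ∀ x ∈ Q, ∀ b ∈ B, x * b = b * x := by
    have hcopQ : (Nat.card Q).Coprime p :=
      ((Nat.Prime.coprime_iff_not_dvd hp.out).2 (hpnd hs hsp hQs)).symm
    have h1 := Cfsg.Agent.Lib.CoprimeHyperplane.le_iSup_hyperplane A Q ⟨hAc, hAe⟩ hA1 hcopQ
      (hAtop Q hQn)
    have h2 : Q ≤ Q ⊓ Subgroup.centralizer (B : Set Γ) := by
      conv_lhs => rw [h1]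
      apply iSup_le
      rintro ⟨B', hB'A, hB'i⟩
      have h3 : Nat.card B' = p := by
        have h4 := (B'.subgroupOf A).card_mul_index
        have h5 : (B'.subgroupOf A).index = p := hB'i
        have h6 : Nat.card (B'.subgroupOf A) = Nat.card B' :=
          Nat.card_congr (Subgroup.subgroupOfEquivOfLe hB'A).toEquiv
        rw [h5, h6, hA2, sq] at h4
        exact Nat.eq_of_mul_eq_mul_right hp.out.pos h4
      show Q ⊓ Subgroup.centralizer (B' : Set Γ) ≤ _
      by_cases h4 : B' = B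
      · rw [h4]
      · 
        rw [hB' B' hB'A h3 h4]; exact bot_le
    intro x hx
    exact (mem_inf_centralizer.1 (h2 hx)).2
  -- `⁅P, B⁆` centralises `Q`
  have hPBQ : ⁅⁅P, B⁆, Q⁆ = ⊥ := by
    apply Subgroup.commutator_commutator_eq_bot_of_rotate
    · have h1 : ⁅B, Q⁆ = ⊥ := by
        rw [MinAct.commutator_eq_bot_iff]
        intro b hb x hx
        exact (hBQ x hx b hb).symm
      rw [h1, Subgroup.commutator_bot_left]
    · rw [eq_bot_iff]
      have h1 : ⁅Q, P⁆ ≤ Q := Subgroup.commutator_le_left Q P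
      refine (Subgroup.commutator_mono h1 le_rfl).trans ?_
      rw [← eq_bot_iff, MinAct.commutator_eq_bot_iff]
      exact hBQ
  -- `C_P(B)` centralises `Q`
  set P₁ : Subgroup Γ := P ⊓ Subgroup.centralizer (B : Set Γ) with hP₁
  have hP₁r : IsPGroup r P₁ := hPr.to_le inf_le_left
  have hAB : A ≤ Subgroup.normalizer (B : Set Γ) := by
    apply le_normalizer_of_conj
    intro a ha x hx
    rw [hAcomm a ha x (hBA hx), mul_inv_cancel_right]
    exact hx
  have hAP₁ : A ≤ Subgroup.normalizer (P₁ : Set Γ) :=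
    le_normalizer_inf hAP (le_normalizer_centralizer hAB)
  have hcopPQ : (Nat.card P₁).Coprime (Nat.card Q) := by
    obtain ⟨i, hi⟩ := IsPGroup.iff_card.1 hP₁r
    obtain ⟨j, hj⟩ := IsPGroup.iff_card.1 hQs
    rw [hi, hj]
    exact Nat.Coprime.pow _ _ ((Nat.coprime_primes hr hs).2 hrs)
  have hP₁Q : P₁ ⊓ Q = ⊥ := Subgroup.inf_eq_bot_of_coprime hcopPQ
  obtain ⟨a, haA, haB⟩ : ∃ a ∈ A, a ∉ B := by
    by_contra hcon
    push Not at hcon
    have h1 := Subgroup.card_le_of_le (show A ≤ B from hcon)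
    rw [hA2, hBcard] at h1
    have := hp.out.one_lt
    nlinarith
  have hBa : B ⊔ Subgroup.zpowers a = A := by
    have h1 : B ⊔ Subgroup.zpowers a ≤ A := sup_le hBA (by rwa [Subgroup.zpowers_le])
    apply Subgroup.eq_of_le_of_card_ge h1
    have h2 : Nat.card (B ⊔ Subgroup.zpowers a : Subgroup Γ) ∣ p ^ 2 := by
      rw [← hA2]; exact Subgroup.card_dvd_of_le h1
    by_contra h3
    have h4 : Nat.card (B ⊔ Subgroup.zpowers a : Subgroup Γ) = p := by
      apply card_eq_of hp.out h2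
      · intro h5
        have h6 := Subgroup.card_eq_one.1 h5
        have h7 : B = ⊥ := by rw [eq_bot_iff, ← h6]; exact le_sup_left
        rw [h7, Subgroup.card_bot] at hBcard
        exact hp.out.one_lt.ne hBcard
      · intro h5
        apply h3
        rw [h5, hA2]
    have h5 : B = B ⊔ Subgroup.zpowers a :=
      Subgroup.eq_of_le_of_card_ge le_sup_left (by rw [h4, hBcard])
    apply haB
    rw [h5]
    exact (le_sup_right : Subgroup.zpowers a ≤ _) (Subgroup.mem_zpowers a)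
  have hKnil : Group.IsNilpotent (P₁ ⊔ Q : Subgroup Γ) := by
    apply Cfsg.Agent.OddOrderLocal.FpfSolvable.isNilpotent_of_fpf_elem (P₁ ⊔ Q)
      (isSolvable_sup hP₁r hQs hQn) a
      ((le_normalizer_sup hAP₁ (hAtop Q hQn)) haA) hp.out (hAe a haA)
    intro x hx hax
    obtain ⟨c, hc, y, hy, rfl⟩ := Subgroup.mem_sup_of_normal_right.1 hx
    -- `c * y` is centralised by `A`
    have h1 : A ≤ Subgroup.centralizer ({c * y} : Set Γ) := by
      rw [← hBa]
      apply sup_le
      · intro b hb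
        rw [Subgroup.mem_centralizer_iff]
        intro x' hx'
        rw [Set.mem_singleton_iff.1 hx', mul_assoc, hBQ y hy b hb, ← mul_assoc, ← mul_assoc,
          (mem_inf_centralizer.1 hc).2 b hb]
      · rw [Subgroup.zpowers_le, Subgroup.mem_centralizer_iff]
        intro x' hx'
        rw [Set.mem_singleton_iff.1 hx', hax]
    have h2 : ∀ a' ∈ A, a' * c = c * a' := by
      intro a' ha'
      have h3 := (Subgroup.mem_centralizer_iff.1 (h1 ha')) (c * y) rfl
      have h4 : c⁻¹ * (a' * c * a'⁻¹) ∈ P₁ ⊓ Q := by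
        refine ⟨P₁.mul_mem (P₁.inv_mem hc) (conj_of_le_normalizer hAP₁ ha' hc), ?_⟩
        have h5 : c⁻¹ * (a' * c * a'⁻¹) = y * (a' * y⁻¹ * a'⁻¹) := by
          have h6 : a' * c * a'⁻¹ = (a' * (c * y)) * y⁻¹ * a'⁻¹ := by group
          rw [h6, ← h3]; group
        rw [h5]
        exact Q.mul_mem hy (hQn.conj_mem _ (Q.inv_mem hy) a')
      rw [hP₁Q, Subgroup.mem_bot] at h4
      have h5 : a' * c * a'⁻¹ = c := (inv_mul_eq_one.1 h4).symm
      exact mul_inv_eq_iff_eq_mul.1 h5
    have hc1 : c = 1 := hfP c hc.1 h2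
    have hy1 : y = 1 := by
      apply hfQ y hy
      intro a' ha'
      have h3 := (Subgroup.mem_centralizer_iff.1 (h1 ha')) (c * y) rfl
      rw [hc1, one_mul] at h3
      exact h3.symm
    rw [hc1, hy1, mul_one]
  have hP₁C : P₁ ≤ Subgroup.centralizer (Q : Set Γ) :=
    Cfsg.Agent.Lib.NilpotentCoprime.le_centralizer_of_coprime hKnil le_sup_left le_sup_right hcopPQ
  intro u hu y hy
  have hBp : IsPGroup p B := hAp.to_le hBA
  obtain ⟨m, hm, c, hc, rfl⟩ := exists_commutator_mul_fixed_of_isPGroup p B P hBp (hBA.trans hAP)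
    (hpnd hr hrp hPr) u hu
  have h1 : m * y = y * m := (MinAct.commutator_eq_bot_iff.1 hPBQ) m hm y hy
  have h2 : c * y = y * c := ((Subgroup.mem_centralizer_iff.1 (hP₁C hc)) y hy).symm
  rw [mul_assoc, h2, ← mul_assoc, h1, mul_assoc]

theorem coprime_card {Γ : Type*} [Group Γ] [Finite Γ] {r s : ℕ} (hr : r.Prime) (hs : s.Prime)
    (hrs : r ≠ s) {P Q : Subgroup Γ} (hP : IsPGroup r P) (hQ : IsPGroup s Q) :
    (Nat.card P).Coprime (Nat.card Q) := by
  have : Fact r.Prime := ⟨hr⟩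
  have : Fact s.Prime := ⟨hs⟩
  obtain ⟨i, hi⟩ := IsPGroup.iff_card.1 hP
  obtain ⟨j, hj⟩ := IsPGroup.iff_card.1 hQ
  rw [hi, hj]
  exact Nat.Coprime.pow _ _ ((Nat.coprime_primes hr hs).2 hrs)

theorem ward_irr (ρ : Representation F Γ V) {A P Q : Subgroup Γ} {r s : ℕ} (hr : r.Prime)
    (hs : s.Prime) (hrp : r ≠ p) (hsp : s ≠ p) (hrs : r ≠ s) (hPr : IsPGroup r P)
    (hQs : IsPGroup s Q) (hgen : P ⊔ Q ⊔ A = ⊤) (hA : Cfsg.IsElementaryAbelian p A)
    (hA2 : Nat.card A = p ^ 2) (hAP : A ≤ Subgroup.normalizer (P : Set Γ)) (hQn : Q.Normal)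
    (hfP : ∀ x ∈ P, (∀ a ∈ A, a * x = x * a) → x = 1)
    (hfQ : ∀ x ∈ Q, (∀ a ∈ A, a * x = x * a) → x = 1) (hpF : (p : F) ≠ 0) (hsF : (s : F) ≠ 0)
    (hV : ∀ v, (∀ a ∈ A, ρ a v = v) → v = 0) (hnt : Nontrivial V) (hirr : Irr ρ) :
    ∀ u ∈ P, ∀ y ∈ Q, ρ (u * y) = ρ (y * u) := by
  have hrf : Fact r.Prime := ⟨hr⟩
  have hsf : Fact s.Prime := ⟨hs⟩
  have hkn : (MonoidHom.ker ρ).Normal := MonoidHom.normal_ker ρ
  let K : Subgroup Γ := Q ⊓ MonoidHom.ker ρ
  have hKn : K.Normal := inferInstance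
  have hKQ : K ≤ Q := inf_le_left
  have hPQ : P ⊓ Q = ⊥ := Subgroup.inf_eq_bot_of_coprime (coprime_card hr hs hrs hPr hQs)
  have hAp : IsPGroup p A := IsPGroup.of_card hA2
  have hpK : ¬ p ∣ Nat.card K := by
    obtain ⟨j, hj⟩ := IsPGroup.iff_card.1 (hQs.to_le hKQ)
    rw [hj]
    intro hd
    exact hsp ((Nat.prime_dvd_prime_iff_eq hp.out hs).1 (hp.out.dvd_of_dvd_pow hd)).symm
  let ρ' : Representation F (Γ ⧸ K) V := QuotientGroup.lift K ρ inf_le_right
  have hρ' : ∀ g, ρ' (QuotientGroup.mk' K g) = ρ g := fun g => rfl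
  obtain ⟨_, hA', hA2'⟩ := (closed_wp p).quot Γ A A K hpK ⟨rfl, hA, hA2⟩
  have hs' := QuotientGroup.mk'_surjective K
  have key := ward_core ρ' (A := A.map (QuotientGroup.mk' K)) (P := P.map (QuotientGroup.mk' K))
    (Q := Q.map (QuotientGroup.mk' K)) hr hs hrp hsp hrs (hPr.map _) (hQs.map _)
    (by rw [← Subgroup.map_sup, ← Subgroup.map_sup, hgen, Subgroup.map_top_of_surjective _ hs'])
    hA' hA2' (by
      apply le_normalizer_of_conj
      rintro _ ⟨a, ha, rfl⟩ _ ⟨x, hx, rfl⟩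
      exact ⟨a * x * a⁻¹, conj_of_le_normalizer hAP ha hx, by rw [map_mul, map_mul, map_inv]⟩)
    (hQn.map _ hs') (by
      rintro _ ⟨x, hx, rfl⟩ hfix
      have h1 : x = 1 := by
        apply hfP x hx
        intro a ha
        have h2 := hfix (QuotientGroup.mk' K a) ⟨a, ha, rfl⟩
        have h3 : x⁻¹ * (a * x * a⁻¹) ∈ P ⊓ Q := by
          refine ⟨P.mul_mem (P.inv_mem hx) (conj_of_le_normalizer hAP ha hx), hKQ ?_⟩
          rw [← QuotientGroup.eq]
          show QuotientGroup.mk' K x = QuotientGroup.mk' K (a * x * a⁻¹)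
          rw [map_mul, map_mul, h2, map_inv, mul_inv_cancel_right]
        rw [hPQ, Subgroup.mem_bot] at h3
        exact mul_inv_eq_iff_eq_mul.1 (inv_mul_eq_one.1 h3).symm
      rw [h1, map_one]) (by
      rintro _ ⟨x, hx, rfl⟩ hfix
      refine (QuotientGroup.eq_one_iff x).2 ?_
      refine mem_of_fixed_mod hAp hfQ hKQ hpK
        (by rw [Subgroup.normalizer_eq_top_iff.2 hKn]; exact le_top) hx ?_
      intro a ha
      have h1 := hfix (QuotientGroup.mk' K a) ⟨a, ha, rfl⟩
      rw [← QuotientGroup.eq]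
      show QuotientGroup.mk' K x = QuotientGroup.mk' K (a * x * a⁻¹)
      rw [map_mul, map_mul, h1, map_inv, mul_inv_cancel_right]) hpF hsF (by
      intro v hv
      exact hV v (fun a ha => hv _ ⟨a, ha, rfl⟩)) hnt (by
      intro W hW
      exact hirr W (fun g w hw => hW (QuotientGroup.mk' K g) w hw)) (by
      rintro _ ⟨y, hy, rfl⟩ hy1
      exact (QuotientGroup.eq_one_iff y).2 ⟨hy, MonoidHom.mem_ker.2 hy1⟩)
  intro u hu y hy
  have h1 := key (QuotientGroup.mk' K u) ⟨u, hu, rfl⟩ (QuotientGroup.mk' K y) ⟨y, hy, rfl⟩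
  rw [← map_mul, ← map_mul] at h1
  rw [← hρ', ← hρ', h1]

end core

theorem t3_ward {p : ℕ} [hp : Fact p.Prime] : T3 p (WP.{u} p) := by
  rintro Γ _ _ A D P Q r s F _ _ V _ _ _ ρ ⟨rfl, hA, hA2⟩ hAp hr hs hrp hsp hrs hPr hQs hAP hAQ hPQ
    hfP hfQ hpF hsF hV u hu y hy
  have hrf : Fact r.Prime := ⟨hr⟩
  have hsf : Fact s.Prime := ⟨hs⟩
  have huP : u ∈ P := commutator_le_left hAP hu
  let M : Subgroup Γ := P ⊔ Q ⊔ D
  have hPM : P ≤ M := le_sup_left.trans le_sup_left
  have hQM : Q ≤ M := le_sup_right.trans le_sup_left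
  have hAM : D ≤ M := le_sup_right
  have hMQ : M ≤ Subgroup.normalizer (Q : Set Γ) := sup_le (sup_le hPQ Subgroup.le_normalizer) hAQ
  have hcA : Nat.card (D.subgroupOf M) = Nat.card D :=
    Nat.card_congr (Subgroup.subgroupOfEquivOfLe hAM).toEquiv
  have hAF : (Nat.card (D.subgroupOf M) : F) ≠ 0 := by
    rw [hcA]
    exact T2.cast_card_ne_zero hpF hAp
  have hQF : (Nat.card Q : F) ≠ 0 := T2.cast_card_ne_zero hsF hQs
  have hgQ : u * y * u⁻¹ * y⁻¹ ∈ Q :=
    Q.mul_mem (conj_of_le_normalizer hPQ huP hy) (Q.inv_mem hy)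
  have hgM : u * y * u⁻¹ * y⁻¹ ∈ M := hQM hgQ
  have hpow : (⟨u * y * u⁻¹ * y⁻¹, hgM⟩ : M) ^ Nat.card Q = 1 := by
    have h1 := congrArg Subtype.val (pow_card_eq_one' (x := (⟨_, hgQ⟩ : Q)))
    exact Subtype.ext h1
  have hAM' : Cfsg.IsElementaryAbelian p (D.subgroupOf M) := by
    obtain ⟨hc, he⟩ := hA
    refine ⟨⟨⟨?_⟩⟩, ?_⟩
    · rintro ⟨⟨a, ha'⟩, ha⟩ ⟨⟨b, hb'⟩, hb⟩
      apply Subtype.ext
      apply Subtype.ext
      show a * b = b * a
      exact congrArg Subtype.val (hc.1.comm (⟨a, ha⟩ : D) ⟨b, hb⟩)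
    · rintro ⟨a, ha'⟩ ha
      exact Subtype.ext (he a ha)
  have hQe : (Q.subgroupOf M).map M.subtype = Q := by
    rw [Subgroup.subgroupOf_map_subtype, inf_eq_left.2 hQM]
  have hPe : (P.subgroupOf M).map M.subtype = P := by
    rw [Subgroup.subgroupOf_map_subtype, inf_eq_left.2 hPM]
  have hDe : (D.subgroupOf M).map M.subtype = D := by
    rw [Subgroup.subgroupOf_map_subtype, inf_eq_left.2 hAM]
  have key := of_irr (D.subgroupOf M) hAF (⟨u * y * u⁻¹ * y⁻¹, hgM⟩ : M) hQF hpow (by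
    intro V' _ _ _ ρ' hnt hirr hV'
    have h1 := ward_irr (p := p) ρ' (A := D.subgroupOf M) (P := P.subgroupOf M)
      (Q := Q.subgroupOf M) hr hs hrp hsp hrs
      (hPr.of_equiv (Subgroup.subgroupOfEquivOfLe hPM).symm)
      (hQs.of_equiv (Subgroup.subgroupOfEquivOfLe hQM).symm)
      (by
        apply Subgroup.map_injective M.subtype_injective
        rw [Subgroup.map_sup, Subgroup.map_sup, hQe, hPe, hDe, ← MonoidHom.range_eq_map,
          Subgroup.range_subtype])
      hAM' (by rw [hcA]; exact hA2) (by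
        apply le_normalizer_of_conj
        intro a ha x hx
        exact conj_of_le_normalizer (a := (a : Γ)) (x := (x : Γ)) hAP ha hx)
      (Subgroup.normal_subgroupOf_of_le_normalizer hMQ)
      (fun x hx hfix => Subtype.ext (hfP x hx (fun a ha => congrArg Subtype.val
        (hfix ⟨a, hAM ha⟩ ha))))
      (fun x hx hfix => Subtype.ext (hfQ x hx (fun a ha => congrArg Subtype.val
        (hfix ⟨a, hAM ha⟩ ha)))) hpF hsF hV' hnt hirr ⟨u, hPM huP⟩ huP ⟨y, hQM hy⟩ hy
    have h2 : (⟨u * y * u⁻¹ * y⁻¹, hgM⟩ : M) =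
        (⟨u, hPM huP⟩ * ⟨y, hQM hy⟩) * (⟨y, hQM hy⟩ * ⟨u, hPM huP⟩)⁻¹ := by
      apply Subtype.ext
      show u * y * u⁻¹ * y⁻¹ = (u * y) * (y * u)⁻¹
      group
    rw [h2, map_mul, h1, ← map_mul, mul_inv_cancel, map_one]) _ V (ρ.comp M.subtype) rfl (by
    intro v hv
    exact hV v (fun a ha => hv ⟨a, hAM ha⟩ ha))
  have h3 : ρ (u * y * u⁻¹ * y⁻¹) = 1 := key
  have h4 : u * y = (u * y * u⁻¹ * y⁻¹) * (y * u) := by group
  rw [h4, map_mul, h3, one_mul]

end Cfsg.Agent.H452.Ward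
end

-- part: H452/ExtTwo
section
/-!
# External form of `height_two`
-/

set_option autoImplicit false

namespace Cfsg.Agent.H452.ExtTwo

open SemidirectProduct
open Cfsg.Agent.Lib.CoprimeCommutator
open Cfsg.Agent.H452.Base Cfsg.Agent.H452.TopN Cfsg.Agent.H452.MinAct Cfsg.Agent.H452.Ext
open Cfsg.Agent.H452.TopH2

universe u

variable {G : Type u} [Group G] [Finite G]

/-- External form of `height_two`. -/
theorem h2_ext {p : ℕ} [Fact p.Prime] {PP : Pr.{u}} (hc : Closed p PP) (hT : T3 p PP)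
    (hG : Group.IsSolvable G) (A D : Subgroup (MulAut G)) (hDA : D ≤ A) (hA : IsPGroup p A)
    (hfpf : ∀ g : G, (∀ a ∈ A, a g = g) → g = 1)
    (hPP : PP (G ⋊[A.subtype] A) (inr : A →* G ⋊[A.subtype] A).range
      ((D.subgroupOf A).map (inr : A →* G ⋊[A.subtype] A))) :
    ∃ N L : Subgroup G, N.Normal ∧ L.Normal ∧ N ≤ L ∧ Group.IsNilpotent N ∧
      (∃ k, L.lowerCentralSeries k ≤ N) ∧ (∀ a ∈ A, ∀ g ∈ L, a g ∈ L) ∧
      (∀ d ∈ D, ∀ g, d g * g⁻¹ ∈ L) ∧ (D = A → L = ⊤) := by
  have hfin := finite_sd A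
  have hcfg := cfg_sd hG A hA hfpf
  obtain ⟨N, hN, hNL, hNn, k, hk⟩ := height_two hc hT _ _ _ _ _ rfl hcfg hPP
  have hnorm : (⁅(inl : G →* G ⋊[A.subtype] A).range, (D.subgroupOf A).map inr⁆ :
      Subgroup (G ⋊[A.subtype] A)).Normal := hcfg.commutator_normal (hc.norm _ _ _ hPP)
  have hle : (⁅(inl : G →* G ⋊[A.subtype] A).range, (D.subgroupOf A).map inr⁆ :
      Subgroup (G ⋊[A.subtype] A)) ≤ (inl : G →* G ⋊[A.subtype] A).range :=
    commutator_le_left (hcfg.le_normalizer _)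
  refine ⟨N.comap inl, (⁅(inl : G →* G ⋊[A.subtype] A).range, (D.subgroupOf A).map inr⁆ :
      Subgroup (G ⋊[A.subtype] A)).comap inl, hN.comap _, hnorm.comap _,
      Subgroup.comap_mono hNL, ?_, ⟨k, comap_lcs hle hk⟩, ?_, ?_, ?_⟩
  · rw [Subgroup.isNilpotent_iff_lowerCentralSeries] at hNn ⊢
    obtain ⟨j, hj⟩ := hNn
    refine ⟨j, ?_⟩
    rw [eq_bot_iff]
    refine (comap_lcs (N := ⊥) (hNL.trans hle) hj.le).trans ?_
    intro x hx
    rw [Subgroup.mem_comap, Subgroup.mem_bot] at hx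
    rw [Subgroup.mem_bot]
    exact SemidirectProduct.inl_injective (by rw [hx, map_one])
  · intro a ha g hg
    exact comap_inl_inv hnorm ha hg
  · intro d hd g
    exact comap_inl_comm hDA hd g
  · rintro rfl
    rw [eq_top_iff]
    intro g _
    rw [Subgroup.mem_comap]
    have h1 : (D.subgroupOf D).map (inr : D →* G ⋊[D.subtype] D) =
        (inr : D →* G ⋊[D.subtype] D).range := by
      rw [Subgroup.subgroupOf_self, ← MonoidHom.range_eq_map]
    rw [h1]
    obtain ⟨m, hm, c, hc', hmc⟩ := exists_commutator_mul_fixed_of_isPGroup p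
      (inr : D →* G ⋊[D.subtype] D).range (inl : G →* G ⋊[D.subtype] D).range hcfg.isp
      (hcfg.le_normalizer _) hcfg.ndvd (inl g) ⟨g, rfl⟩
    have h2 : c = 1 := hcfg.fix c hc'.1 (fun a ha => (Subgroup.mem_centralizer_iff.1 hc'.2) a ha)
    rw [h2, mul_one] at hmc
    rw [hmc]
    exact hm

end Cfsg.Agent.H452.ExtTwo
end
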